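import Cfsg.Agent.Lib.ZStar.Main
import Cfsg.Agent.Lib.Invol.WR5

/-!
# The Brauer-Suzuki theorem
-/

set_option autoImplicit false
set_option linter.unusedSectionVars false
set_option linter.style.haveILetI false

namespace Cfsg.Agent.Lib.ZStar

open Cfsg (IsIsolatedInvolution)
open Cfsg.Agent.Lib.Invol

variable {G : Type*} [Group G] [Finite G]

/-- An involution which is the unique involution of a Sylow 2-subgroup is isolated. -/
theorem isolated_of_unique (S : Sylow 2 G) {x : G} (hx : orderOf x = 2)
    (hU : ∀ s ∈ (S : Subgroup G), s * s = 1 → s ≠ 1 → s = x) : IsIsolatedInvolution x := by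
  refine isolated_of_sylow S hx fun g hg => ?_
  have hxx := mul_self_of_order_two hx
  refine hU _ hg ?_ ?_
  · calc g * x * g⁻¹ * (g * x * g⁻¹) = g * (x * x) * g⁻¹ := by group
      _ = 1 := by rw [hxx]; group
  · intro h
    have h1 : x = 1 := by
      have h2 : g⁻¹ * (g * x * g⁻¹) * g = g⁻¹ * 1 * g := by rw [h]
      simpa [mul_assoc] using h2
    rw [h1] at hx
    simp at hx

/-- **Brauer-Suzuki**: if a Sylow 2-subgroup is nonabelian with a unique involution and there is no
normal subgroup of odd order then the centre has order two. -/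
theorem center_of_quaternion (S : Sylow 2 G) (hna : ¬ IsMulCommutative (S : Subgroup G))
    (hU : ∃! s : (S : Subgroup G), orderOf s = 2)
    (hO : ∀ N : Subgroup G, N.Normal → Odd (Nat.card N) → N = ⊥) :
    Nat.card (Subgroup.center G) = 2 := by
  classical
  have : Fact (Nat.Prime 2) := ⟨Nat.prime_two⟩
  obtain ⟨d⟩ := exists_quatData S.isPGroup' hna hU
  obtain ⟨⟨x, hxS⟩, hx2, hxu⟩ := hU
  have hx : orderOf x = 2 := by
    rw [← hx2, Subgroup.orderOf_mk]
  have hxx := mul_self_of_order_two hx
  have hx1 : x ≠ 1 := by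
    rintro rfl
    simp at hx
  have hUniq : ∀ s ∈ (S : Subgroup G), s * s = 1 → s ≠ 1 → s = x := by
    intro s hs hss hs1
    have := hxu ⟨s, hs⟩ (by
      show orderOf (⟨s, hs⟩ : (S : Subgroup G)) = 2
      rw [Subgroup.orderOf_mk]
      exact order_two_of_mul_self hss hs1)
    exact congrArg Subtype.val this
  have hiso := isolated_of_unique S hx hUniq
  -- `x` is central
  obtain ⟨N, hNn, hNo, hN⟩ := zstarProp G x hiso
  have hNb := hO N hNn hNo
  have hxc : x ∈ Subgroup.center G := by
    rw [Subgroup.mem_center_iff]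
    intro g
    have h1 := hN g
    rw [hNb, Subgroup.mem_bot] at h1
    have h2 : g * x * g⁻¹ = x := by
      have := eq_inv_of_mul_eq_one_right h1
      rwa [inv_eq_of_mul_self hxx] at this
    calc g * x = (g * x * g⁻¹) * g := by group
      _ = x * g := by rw [h2]
  -- the centre is a 2-group inside `S`
  have hcenS : ∀ c ∈ Subgroup.center G, c ∈ (S : Subgroup G) := by
    intro c hc
    obtain ⟨u, v, huv, -, hu, hv, hu', hv'⟩ := Cfsg.Agent.Lib.Block.exists_jordan (p := 2) c
    have hvc : v ∈ Subgroup.center G :=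
      (Subgroup.zpowers_le.mpr hc) hv'
    have huc : u ∈ Subgroup.center G :=
      (Subgroup.zpowers_le.mpr hc) hu'
    have hvn : (Subgroup.zpowers v).Normal := by
      constructor
      rintro _ ⟨n, rfl⟩ g
      have h1 : Commute g (v ^ n) := by
        have : v ^ n ∈ Subgroup.center G := Subgroup.zpow_mem _ hvc n
        exact ((Subgroup.mem_center_iff.mp this) g)
      show g * (v ^ n) * g⁻¹ ∈ _
      rw [h1.eq, mul_inv_cancel_right]
      exact ⟨n, rfl⟩
    have hvo : Odd (Nat.card (Subgroup.zpowers v)) := by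
      rw [Nat.card_zpowers, ← Nat.not_even_iff_odd, even_iff_two_dvd]
      exact hv
    have hv1 : v = 1 := by
      have := hO _ hvn hvo
      exact Subgroup.zpowers_eq_bot.mp this
    rw [← huv, hv1, mul_one]
    obtain ⟨g, hg⟩ := exists_conj_mem_sylow S hu
    have h1 : g * u = u * g := (Subgroup.mem_center_iff.mp huc g)
    rw [h1, mul_inv_cancel_right] at hg
    exact hg
  -- the centre of `S`
  have hcen : ∀ c ∈ Subgroup.center G, c = 1 ∨ c = x := by
    intro c hc
    by_contra hcon
    push Not at hcon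
    have hcS := hcenS c hc
    let c' : (S : Subgroup G) := ⟨c, hcS⟩
    have hccent : ∀ t : (S : Subgroup G), t * c' = c' * t := by
      intro t
      apply Subtype.ext
      exact (Subgroup.mem_center_iff.mp hc (t : G))
    by_cases hcW : c' ∈ d.W
    · -- `c` is inverted by `b`
      have h1 := d.conj_b c' hcW
      rw [hccent d.b, mul_inv_cancel_right] at h1
      have h2 : c' * c' = 1 := by
        nth_rw 1 [h1]
        exact inv_mul_cancel _
      have h3 : c * c = 1 := congrArg Subtype.val h2
      exact hcon.2 (hUniq c hcS h3 hcon.1)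
    · -- then `S` is commutative
      apply hna
      have hcinv : c'⁻¹ ∉ d.W := fun h => hcW (by simpa using d.W.inv_mem h)
      have hrep : ∀ u : (S : Subgroup G), ∃ w ∈ d.W, u = w ∨ u = w * c' := by
        intro u
        by_cases hu : u ∈ d.W
        · exact ⟨u, hu, Or.inl rfl⟩
        · exact ⟨u * c'⁻¹, d.mem_of_not_of_not hu hcinv, Or.inr (by group)⟩
      refine ⟨⟨fun u v => ?_⟩⟩
      obtain ⟨w₁, hw₁, hu⟩ := hrep u
      obtain ⟨w₂, hw₂, hv⟩ := hrep v
      have hcomm := d.W_comm hw₁ hw₂
      rcases hu with hu | hu <;> rcases hv with hv | hv <;> rw [hu, hv]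
      · exact hcomm
      · rw [← mul_assoc, hcomm, mul_assoc, hccent w₁, mul_assoc]
      · rw [mul_assoc, ← hccent w₂, ← mul_assoc, hcomm, mul_assoc]
      · calc w₁ * c' * (w₂ * c') = w₁ * (c' * w₂) * c' := by simp only [mul_assoc]
          _ = w₁ * (w₂ * c') * c' := by rw [hccent w₂]
          _ = (w₁ * w₂) * (c' * c') := by simp only [mul_assoc]
          _ = (w₂ * w₁) * (c' * c') := by rw [hcomm]
          _ = w₂ * (w₁ * c') * c' := by simp only [mul_assoc]
          _ = w₂ * (c' * w₁) * c' := by rw [hccent w₁]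
          _ = w₂ * c' * (w₁ * c') := by simp only [mul_assoc]
  rw [Nat.card_eq_two_iff]
  refine ⟨⟨1, one_mem _⟩, ⟨x, hxc⟩, ?_, ?_⟩
  · intro h
    exact hx1 (congrArg Subtype.val h).symm
  · ext c
    simp only [Set.mem_insert_iff, Set.mem_singleton_iff, Set.mem_univ, iff_true]
    rcases hcen c c.2 with h | h
    · left
      exact Subtype.ext h
    · right
      exact Subtype.ext h

/-- The quaternion form of Brauer-Suzuki. -/
theorem center_of_quaternionGroup (S : Sylow 2 G) {k : ℕ} (hk : k ≠ 0)
    (e : (S : Subgroup G) ≃* QuaternionGroup (2 * k))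
    (hO : ∀ N : Subgroup G, N.Normal → Odd (Nat.card N) → N = ⊥) :
    Nat.card (Subgroup.center G) = 2 := by
  haveI : NeZero k := ⟨hk⟩
  refine center_of_quaternion S ?_ ?_ hO
  · intro hc
    obtain ⟨u, v, huv⟩ := qg_not_comm (k := k)
    apply huv
    have h1 := hc.is_comm.comm (e.symm u) (e.symm v)
    have h2 := congrArg e h1
    simpa using h2
  · -- there is an involution in the quaternion group
    haveI : NeZero (2 * k) := ⟨by omega⟩
    have hfin : Finite (QuaternionGroup (2 * k)) := Finite.of_equiv _ e.toEquiv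
    have hcard : 2 ∣ Nat.card (QuaternionGroup (2 * k)) := by
      rw [Nat.card_eq_fintype_card, QuaternionGroup.card]
      exact ⟨2 * (2 * k), by ring⟩
    haveI : Fact (Nat.Prime 2) := ⟨Nat.prime_two⟩
    obtain ⟨q, hq⟩ := exists_prime_orderOf_dvd_card' 2 hcard
    have hqq := mul_self_of_order_two hq
    have hq1 : q ≠ 1 := by
      rintro rfl
      simp at hq
    refine ⟨e.symm q, by
      show orderOf (e.symm q) = 2
      rw [MulEquiv.orderOf_eq]
      exact hq, fun s hs => ?_⟩
    apply e.injective
    rw [MulEquiv.apply_symm_apply]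
    have hs' : orderOf (e s) = 2 := by rw [MulEquiv.orderOf_eq]; exact hs
    refine qg_invol_unique (mul_self_of_order_two hs') hqq ?_ hq1
    intro h
    rw [h] at hs'
    simp at hs'

end Cfsg.Agent.Lib.ZStar
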