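import Cfsg.Agent.Lib.ZStar.Cor
import Cfsg.Agent.Lib.ZStar.SylowFusion
import Cfsg.Agent.Lib.Transfer.Frat
import Cfsg.Agent.Lib.Invol.Basic

/-!
# A simple group with `C(z)` Sylow and `Φ(C(z)) = ⟨z⟩`

The centralizer is dihedral of order eight.  The proof combines the `Z*`-theorem, Burnside-type
control of fusion in the centre, and the focal subgroup theorem.
-/

set_option autoImplicit false

namespace Cfsg.Agent.Lib.ZStar.D8

open Subgroup
open scoped commutatorElement

variable {L : Type*} [Group L]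

/-- The hypotheses on an involution. -/
structure Hz (z : L) : Prop where
  zz : z * z = 1
  z1 : z ≠ 1
  sq : ∀ r, Commute r z → r * r = 1 ∨ r * r = z
  cm : ∀ r s, Commute r z → Commute s z → r * s * r⁻¹ * s⁻¹ = 1 ∨ r * s * r⁻¹ * s⁻¹ = z
  nr : ∀ g, (∀ r, Commute r z → Commute (g * r * g⁻¹) z) → g * z * g⁻¹ = z

theorem comm_conj {r g z : L} : Commute r (g * z * g⁻¹) ↔ Commute (g⁻¹ * r * g) z := by
  constructor
  · intro h
    have h1 : r * (g * z * g⁻¹) = (g * z * g⁻¹) * r := h
    show (g⁻¹ * r * g) * z = z * (g⁻¹ * r * g)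
    calc (g⁻¹ * r * g) * z = g⁻¹ * (r * (g * z * g⁻¹)) * g := by group
      _ = g⁻¹ * ((g * z * g⁻¹) * r) * g := by rw [h1]
      _ = _ := by group
  · intro h
    have h1 : (g⁻¹ * r * g) * z = z * (g⁻¹ * r * g) := h
    show r * (g * z * g⁻¹) = (g * z * g⁻¹) * r
    calc r * (g * z * g⁻¹) = g * ((g⁻¹ * r * g) * z) * g⁻¹ := by group
      _ = g * (z * (g⁻¹ * r * g)) * g⁻¹ := by rw [h1]
      _ = _ := by group

theorem comm_conj' {r g z : L} : Commute (g * r * g⁻¹) (g * z * g⁻¹) ↔ Commute r z := by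
  rw [comm_conj]
  have e : g⁻¹ * (g * r * g⁻¹) * g = r := by group
  rw [e]

namespace Hz

variable {z : L}

theorem conj (h : Hz z) (g : L) : Hz (g * z * g⁻¹) where
  zz := by
    calc (g * z * g⁻¹) * (g * z * g⁻¹) = g * (z * z) * g⁻¹ := by group
      _ = 1 := by rw [h.zz]; group
  z1 := by
    intro h1
    apply h.z1
    calc z = g⁻¹ * (g * z * g⁻¹) * g := by group
      _ = 1 := by rw [h1]; group
  sq := by
    intro r hr
    rw [comm_conj] at hr
    rcases h.sq _ hr with h1 | h1
    · left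
      calc r * r = g * ((g⁻¹ * r * g) * (g⁻¹ * r * g)) * g⁻¹ := by group
        _ = 1 := by rw [h1]; group
    · right
      calc r * r = g * ((g⁻¹ * r * g) * (g⁻¹ * r * g)) * g⁻¹ := by group
        _ = _ := by rw [h1]
  cm := by
    intro r s hr hs
    rw [comm_conj] at hr hs
    have e : r * s * r⁻¹ * s⁻¹ =
        g * ((g⁻¹ * r * g) * (g⁻¹ * s * g) * (g⁻¹ * r * g)⁻¹ * (g⁻¹ * s * g)⁻¹) * g⁻¹ := by group
    rcases h.cm _ _ hr hs with h1 | h1
    · left
      rw [e, h1]
      group
    · right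
      rw [e, h1]
  nr := by
    intro g' hg'
    have h1 := h.nr (g⁻¹ * g' * g) (by
      intro r hr
      have h2 : Commute (g * r * g⁻¹) (g * z * g⁻¹) := comm_conj'.2 hr
      have h3 := hg' _ h2
      rw [comm_conj] at h3
      have e : g⁻¹ * (g' * (g * r * g⁻¹) * g'⁻¹) * g = (g⁻¹ * g' * g) * r * (g⁻¹ * g' * g)⁻¹ := by group
      rwa [e] at h3)
    calc g' * (g * z * g⁻¹) * g'⁻¹ = g * ((g⁻¹ * g' * g) * z * (g⁻¹ * g' * g)⁻¹) * g⁻¹ := by group
      _ = _ := by rw [h1]

/-- The action on a noncommuting element. -/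
theorem act (h : Hz z) {t c : L} (ht : Commute t z) (hc : Commute c z) (hn : ¬ Commute t c) :
    t * c * t⁻¹ = z * c := by
  rcases h.cm t c ht hc with h1 | h1
  · exfalso
    apply hn
    show t * c = c * t
    have h2 : t * c * t⁻¹ = c := by
      calc t * c * t⁻¹ = (t * c * t⁻¹ * c⁻¹) * c := by group
        _ = c := by rw [h1, one_mul]
    calc t * c = (t * c * t⁻¹) * t := by group
      _ = c * t := by rw [h2]
  · calc t * c * t⁻¹ = (t * c * t⁻¹ * c⁻¹) * c := by group
      _ = z * c := by rw [h1]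

/-- Elements with the same nontrivial action differ by a centralizing element. -/
theorem two_coset (h : Hz z) {a b c : L} (ha : Commute a z) (hb : Commute b z) (hc : Commute c z)
    (hac : ¬ Commute a c) (hbc : ¬ Commute b c) : Commute (a⁻¹ * b) c := by
  have e1 := h.act ha hc hac
  have e2 := h.act hb hc hbc
  show (a⁻¹ * b) * c = c * (a⁻¹ * b)
  have e3 : b * c = (z * c) * b := by
    rw [← e2]
    group
  have e4 : a * c = (z * c) * a := by
    rw [← e1]
    group
  calc (a⁻¹ * b) * c = a⁻¹ * (b * c) := by group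
    _ = a⁻¹ * ((z * c) * b) := by rw [e3]
    _ = a⁻¹ * (z * c) * b := by group
    _ = c * a⁻¹ * b := by
        have e5 : a⁻¹ * (z * c) = c * a⁻¹ := by
          calc a⁻¹ * (z * c) = a⁻¹ * ((z * c) * a) * a⁻¹ := by group
            _ = a⁻¹ * (a * c) * a⁻¹ := by rw [e4]
            _ = c * a⁻¹ := by group
        rw [e5]
    _ = _ := by group

end Hz

/-- A pair of commuting conjugates, with their two centralizers. -/
structure Pr (z y : L) : Prop where
  hz : Hz z
  hy : Hz y
  comm : Commute y z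
  ne : y ≠ z
  t1 : ∃ t, Commute t z ∧ ¬ Commute t y
  t2 : ∃ t, Commute t y ∧ ¬ Commute t z

namespace Pr

variable {z y : L}

theorem symm (P : Pr z y) : Pr y z where
  hz := P.hy
  hy := P.hz
  comm := P.comm.symm
  ne := P.ne.symm
  t1 := P.t2
  t2 := P.t1

theorem sq1 (P : Pr z y) {c : L} (h1 : Commute c z) (h2 : Commute c y) : c * c = 1 := by
  rcases P.hz.sq c h1 with h | h
  · exact h
  rcases P.hy.sq c h2 with h' | h'
  · exact h'
  exact absurd (h'.symm.trans h) P.ne

theorem comm1 (P : Pr z y) {c d : L} (h1 : Commute c z) (h2 : Commute c y) (h3 : Commute d z)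
    (h4 : Commute d y) : Commute c d := by
  have key : c * d * c⁻¹ * d⁻¹ = 1 := by
    rcases P.hz.cm c d h1 h3 with h | h
    · exact h
    rcases P.hy.cm c d h2 h4 with h' | h'
    · exact h'
    exact absurd (h'.symm.trans h) P.ne
  show c * d = d * c
  calc c * d = (c * d * c⁻¹ * d⁻¹) * (d * c) := by group
    _ = d * c := by rw [key, one_mul]

/-- A member of the abelian part commuting with `t` is central. -/
theorem central_of (P : Pr z y) {t v : L} (h1 : Commute t z) (h2 : ¬ Commute t y) (hz : Commute v z)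
    (hy : Commute v y) (hv : Commute t v) : ∀ r, Commute r z → Commute r v := by
  intro r hr
  by_cases hry : Commute r y
  · exact P.comm1 hr hry hz hy
  · have h3 := P.hz.two_coset h1 hr P.comm h2 hry
    have h4 : Commute (t⁻¹ * r) z := (h1.inv_left).mul_left hr
    have h5 := P.comm1 h4 h3 hz hy
    have e : r = t * (t⁻¹ * r) := by group
    rw [e]
    exact hv.mul_left h5

/-- A noncentral member of the abelian part is conjugate to a central element. -/
theorem exists_central (P : Pr z y) {u : L} (hz : Commute u z) (hy : Commute u y)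
    (hnc : ¬ ∀ r, Commute r z → Commute r u) :
    ∃ h v, h * u * h⁻¹ = v ∧ (∀ r, Commute r z → Commute r v) ∧ (u * v = y ∨ u * v = y * z) := by
  obtain ⟨t₁, h1z, h1y⟩ := P.t1
  obtain ⟨t₂, h2y, h2z⟩ := P.t2
  have hu1 : ¬ Commute t₁ u := fun hc => hnc (P.central_of h1z h1y hz hy hc)
  have e1 := P.hz.act h1z hz hu1
  have ey := P.hz.act h1z P.comm h1y
  have ez := P.hy.act h2y P.comm.symm h2z
  have yz : y * z = z * y := P.comm
  have uz : u * z = z * u := hz
  have uy : u * y = y * u := hy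
  have t1z : t₁ * z * t₁⁻¹ = z := by
    have : t₁ * z = z * t₁ := h1z
    rw [this]
    group
  have uu := P.sq1 hz hy
  have zz := P.hz.zz
  by_cases hu2 : Commute t₂ u
  · refine ⟨t₂ * t₁, y * z * u, ?_, ?_, Or.inr ?_⟩
    · have t2u : t₂ * u * t₂⁻¹ = u := by
        have : t₂ * u = u * t₂ := hu2
        rw [this]
        group
      calc t₂ * t₁ * u * (t₂ * t₁)⁻¹ = t₂ * (t₁ * u * t₁⁻¹) * t₂⁻¹ := by group
        _ = t₂ * (z * u) * t₂⁻¹ := by rw [e1]
        _ = (t₂ * z * t₂⁻¹) * (t₂ * u * t₂⁻¹) := by group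
        _ = y * z * u := by rw [ez, t2u]
    · apply P.central_of h1z h1y
      · exact ((P.comm.mul_left (Commute.refl z))).mul_left hz
      · exact ((Commute.refl y).mul_left P.comm.symm).mul_left hy
      · show t₁ * (y * z * u) = (y * z * u) * t₁
        have e2 : t₁ * (y * z * u) * t₁⁻¹ = y * z * u := by
          calc t₁ * (y * z * u) * t₁⁻¹ = (t₁ * y * t₁⁻¹) * (t₁ * z * t₁⁻¹) * (t₁ * u * t₁⁻¹) := by group
            _ = (z * y) * z * (z * u) := by rw [ey, t1z, e1]
            _ = z * y * (z * z) * u := by group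
            _ = z * y * u := by rw [zz, mul_one]
            _ = y * z * u := by rw [yz]
        calc t₁ * (y * z * u) = (t₁ * (y * z * u) * t₁⁻¹) * t₁ := by group
          _ = _ := by rw [e2]
    · calc u * (y * z * u) = (u * y) * z * u := by group
        _ = (y * u) * z * u := by rw [uy]
        _ = y * (u * z) * u := by group
        _ = y * (z * u) * u := by rw [uz]
        _ = y * z * (u * u) := by group
        _ = y * z := by rw [uu, mul_one]
  · have e2 := P.hy.act h2y hy hu2
    refine ⟨t₂, y * u, e2, ?_, Or.inl ?_⟩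
    · apply P.central_of h1z h1y
      · exact P.comm.mul_left hz
      · exact (Commute.refl y).mul_left hy
      · show t₁ * (y * u) = (y * u) * t₁
        have e3 : t₁ * (y * u) * t₁⁻¹ = y * u := by
          calc t₁ * (y * u) * t₁⁻¹ = (t₁ * y * t₁⁻¹) * (t₁ * u * t₁⁻¹) := by group
            _ = (z * y) * (z * u) := by rw [ey, e1]
            _ = (y * z) * (z * u) := by rw [yz]
            _ = y * (z * z) * u := by group
            _ = y * u := by rw [zz, mul_one]
        calc t₁ * (y * u) = (t₁ * (y * u) * t₁⁻¹) * t₁ := by group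
          _ = _ := by rw [e3]
    · calc u * (y * u) = (u * y) * u := by group
        _ = (y * u) * u := by rw [uy]
        _ = y * (u * u) := by group
        _ = y := by rw [uu, mul_one]

end Pr

section Finite

variable [Finite L] {z : L}

/-- A conjugate different from `z` is not central in the centralizer of `z`. -/
theorem exists_t (h : Hz z) (g : L) (hne : g * z * g⁻¹ ≠ z) :
    ∃ t, Commute t z ∧ ¬ Commute t (g * z * g⁻¹) := by
  by_contra hcon
  push Not at hcon
  apply hne
  have hle : centralizer {z} ≤ centralizer {g * z * g⁻¹} := by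
    intro t ht
    rw [mem_centralizer_singleton_iff] at ht ⊢
    exact hcon t ht
  let f : centralizer {g * z * g⁻¹} → centralizer {z} := fun x => ⟨g⁻¹ * x * g, by
    have hx := x.2
    rw [mem_centralizer_singleton_iff] at hx ⊢
    exact comm_conj.1 hx⟩
  have hf : Function.Injective f := by
    intro a b hab
    have h1 := congrArg Subtype.val hab
    simp only [f] at h1
    apply Subtype.ext
    exact mul_left_cancel (mul_right_cancel h1)
  have hcard := Nat.card_le_card_of_injective f hf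
  have heq := Subgroup.eq_of_le_of_card_ge hle hcard
  apply h.nr
  intro r hr
  have h1 : Commute (g * r * g⁻¹) (g * z * g⁻¹) := comm_conj'.2 hr
  have h2 : g * r * g⁻¹ ∈ centralizer {g * z * g⁻¹} := by
    rw [mem_centralizer_singleton_iff]
    exact h1
  rw [← heq, mem_centralizer_singleton_iff] at h2
  exact h2

theorem Pr.of (h : Hz z) (g : L) (hc : Commute (g * z * g⁻¹) z) (hne : g * z * g⁻¹ ≠ z) :
    Pr z (g * z * g⁻¹) where
  hz := h
  hy := h.conj g
  comm := hc
  ne := hne
  t1 := exists_t h g hne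
  t2 := by
    have e : g⁻¹ * (g * z * g⁻¹) * g⁻¹⁻¹ = z := by group
    have := exists_t (h.conj g) g⁻¹ (by rw [e]; exact hne.symm)
    rwa [e] at this

end Finite

section Syl

variable [Finite L] {z : L}

theorem mem_sq_of {x : L} (hz : z * z = 1) (hx : x ∈ zpowers z) : x = 1 ∨ x = z := by
  obtain ⟨k, rfl⟩ := mem_zpowers_iff.1 hx
  have h2 : z ^ (2 : ℤ) = 1 := by
    rw [zpow_two, hz]
  rcases Int.even_or_odd' k with ⟨m, rfl | rfl⟩
  · left
    rw [zpow_mul, h2, one_zpow]
  · right
    rw [zpow_add, zpow_mul, h2, one_zpow, one_mul, zpow_one]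

/-- The hypotheses of the statement give the elementwise hypotheses. -/
theorem hz_of (hz : orderOf z = 2) (R : Sylow 2 L) (hR : (R : Subgroup L) = centralizer ({z} : Set L))
    (hΦ : (frattini ↥(R : Subgroup L)).map (R : Subgroup L).subtype = zpowers z) : Hz z := by
  haveI : Fact (Nat.Prime 2) := ⟨Nat.prime_two⟩
  have zz : z * z = 1 := by
    have h1 : z ^ 2 = 1 := by
      rw [← hz]
      exact pow_orderOf_eq_one z
    rwa [pow_two] at h1
  have z1 : z ≠ 1 := by
    rintro rfl
    rw [orderOf_one] at hz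
    omega
  have hp : IsPGroup 2 (R : Subgroup L) := R.isPGroup'
  have mem : ∀ {x : L}, Commute x z → x ∈ (R : Subgroup L) := by
    intro x hx
    rw [hR, mem_centralizer_singleton_iff]
    exact hx
  have mem' : ∀ x : L, x ∈ (R : Subgroup L) → Commute x z := by
    intro x hx
    rw [hR, mem_centralizer_singleton_iff] at hx
    exact hx
  have hzΦ : ∀ x : (R : Subgroup L), x ∈ frattini (R : Subgroup L) → (x : L) = 1 ∨ (x : L) = z := by
    intro x hx
    apply mem_sq_of zz
    rw [← hΦ]
    exact ⟨x, hx, rfl⟩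
  have sq : ∀ r, Commute r z → r * r = 1 ∨ r * r = z := by
    intro r hr
    have h1 := Cfsg.Agent.Lib.Transfer.pow_mem_frattini hp ⟨r, mem hr⟩
    have h2 := hzΦ _ h1
    simpa [pow_two] using h2
  have cm : ∀ r s, Commute r z → Commute s z → r * s * r⁻¹ * s⁻¹ = 1 ∨ r * s * r⁻¹ * s⁻¹ = z := by
    intro r s hr hs
    have h0 : ⁅(⟨r, mem hr⟩ : (R : Subgroup L)), (⟨s, mem hs⟩ : (R : Subgroup L))⁆ ∈ commutator (R : Subgroup L) := by
      rw [_root_.commutator_def]
      exact commutator_mem_commutator (mem_top _) (mem_top _)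
    have h1 := Cfsg.Agent.Lib.Transfer.commutator_le_frattini hp h0
    have h2 := hzΦ _ h1
    simpa [commutatorElement_def] using h2
  refine ⟨zz, z1, sq, cm, ?_⟩
  intro g hg
  have hnot : ¬ ((∀ r, Commute r z → r * r = 1) ∧ ∀ r s, Commute r z → Commute s z → r * s * r⁻¹ * s⁻¹ = 1) := by
    rintro ⟨h1, h2⟩
    have h3 : frattini (R : Subgroup L) ≤ ⊥ := by
      apply Cfsg.Agent.Lib.Transfer.frattini_le_of_elementary hp
      · rw [_root_.commutator_def, commutator_le]
        intro x _ y _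
        rw [mem_bot]
        have hx : Commute (x : L) z := mem' _ x.2
        have hy : Commute (y : L) z := mem' _ y.2
        apply Subtype.ext
        simpa [commutatorElement_def] using h2 x y hx hy
      · intro x
        have hx : Commute (x : L) z := mem' _ x.2
        rw [mem_bot]
        apply Subtype.ext
        simpa [pow_two] using h1 x hx
    have h4 : z ∈ zpowers z := mem_zpowers z
    rw [← hΦ] at h4
    obtain ⟨x, hx, hxz⟩ := h4
    have h5 := h3 hx
    rw [mem_bot] at h5
    rw [h5] at hxz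
    exact z1 (by simpa using hxz.symm)
  have hg1 : g * z * g⁻¹ ≠ 1 := by
    intro h
    apply z1
    calc z = g⁻¹ * (g * z * g⁻¹) * g := by group
      _ = 1 := by rw [h]; group
  by_contra hgz
  apply hnot
  constructor
  · intro r hr
    rcases sq r hr with h | h
    · exact h
    exfalso
    have h1 := hg r hr
    have e : (g * r * g⁻¹) * (g * r * g⁻¹) = g * z * g⁻¹ := by
      calc (g * r * g⁻¹) * (g * r * g⁻¹) = g * (r * r) * g⁻¹ := by group
        _ = _ := by rw [h]
    rcases sq _ h1 with h2 | h2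
    · exact hg1 (e.symm.trans h2)
    · exact hgz (e.symm.trans h2)
  · intro r s hr hs
    rcases cm r s hr hs with h | h
    · exact h
    exfalso
    have h1 := hg r hr
    have h1' := hg s hs
    have e : (g * r * g⁻¹) * (g * s * g⁻¹) * (g * r * g⁻¹)⁻¹ * (g * s * g⁻¹)⁻¹ = g * z * g⁻¹ := by
      calc _ = g * (r * s * r⁻¹ * s⁻¹) * g⁻¹ := by group
        _ = _ := by rw [h]
    rcases cm _ _ h1 h1' with h2 | h2
    · exact hg1 (e.symm.trans h2)
    · exact hgz (e.symm.trans h2)

variable (R : Sylow 2 L) (hR : (R : Subgroup L) = centralizer ({z} : Set L))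

include hR in
theorem mem_R {x : L} : x ∈ (R : Subgroup L) ↔ Commute x z := by
  rw [hR, mem_centralizer_singleton_iff]
  rfl

include hR in
/-- Distinct central elements are not conjugate. -/
theorem conj_central_eq (hz : Hz z) {v h : L} (hv : ∀ r, Commute r z → Commute r v)
    (hv' : ∀ r, Commute r z → Commute r (h * v * h⁻¹)) : h * v * h⁻¹ = v := by
  haveI : Fact (Nat.Prime 2) := ⟨Nat.prime_two⟩
  have hU : ((h • R : Sylow 2 L) : Subgroup L) ≤ centralizer {h * v * h⁻¹} := by
    intro x hx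
    rw [mem_smul_sylow] at hx
    rw [mem_centralizer_singleton_iff]
    exact comm_conj.2 (hv _ ((mem_R R hR).1 hx))
  have hA : (R : Subgroup L) ≤ centralizer {h * v * h⁻¹} := by
    intro x hx
    rw [mem_centralizer_singleton_iff]
    exact hv' x ((mem_R R hR).1 hx)
  obtain ⟨k, hk, hle⟩ := sylow_cover (centralizer {h * v * h⁻¹}) (h • R) hU R R.isPGroup' hA
  have heq : ((k • (h • R) : Sylow 2 L) : Subgroup L) = R := R.is_maximal' (Sylow.isPGroup' _) hle
  have hnz : (k * h) * z * (k * h)⁻¹ = z := by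
    apply hz.nr
    intro r hr
    have h1 : (k * h) * r * (k * h)⁻¹ ∈ ((k • (h • R) : Sylow 2 L) : Subgroup L) := by
      rw [mem_smul_sylow, mem_smul_sylow]
      have e : h⁻¹ * (k⁻¹ * ((k * h) * r * (k * h)⁻¹) * k) * h = r := by group
      rw [e]
      exact (mem_R R hR).2 hr
    rw [heq] at h1
    exact (mem_R R hR).1 h1
  have hnc : Commute (k * h) z := by
    show (k * h) * z = z * (k * h)
    calc (k * h) * z = ((k * h) * z * (k * h)⁻¹) * (k * h) := by group
      _ = _ := by rw [hnz]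
  have hnv : Commute (k * h) v := hv _ hnc
  rw [mem_centralizer_singleton_iff] at hk
  have e1 : (k * h) * v * (k * h)⁻¹ = v := by
    have : (k * h) * v = v * (k * h) := hnv
    rw [this]
    group
  have e2 : (k * h) * v * (k * h)⁻¹ = h * v * h⁻¹ := by
    calc (k * h) * v * (k * h)⁻¹ = k * (h * v * h⁻¹) * k⁻¹ := by group
      _ = (h * v * h⁻¹) * k * k⁻¹ := by rw [hk]
      _ = _ := by group
  rw [← e2, e1]

include hR in
/-- Choosing the conjugating element well. -/
theorem exists_y2 {u₀ v₀ h₀ : L} (hc : h₀ * u₀ * h₀⁻¹ = v₀)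
    (hv₀ : ∀ r, Commute r z → Commute r v₀) :
    ∃ g, g * v₀ * g⁻¹ = u₀ ∧ ∀ r, Commute r z → Commute r u₀ → Commute r (g * z * g⁻¹) := by
  haveI : Fact (Nat.Prime 2) := ⟨Nat.prime_two⟩
  have hu : u₀ = h₀⁻¹ * v₀ * h₀ := by
    rw [← hc]
    group
  have hU : ((h₀⁻¹ • R : Sylow 2 L) : Subgroup L) ≤ centralizer {u₀} := by
    intro x hx
    rw [mem_smul_sylow, inv_inv] at hx
    rw [mem_centralizer_singleton_iff]
    have h1 := hv₀ _ ((mem_R R hR).1 hx)
    have h2 := comm_conj (r := x) (g := h₀⁻¹) (z := v₀)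
    rw [inv_inv] at h2
    rw [hu]
    exact h2.2 h1
  have hAp : IsPGroup 2 (centralizer {u₀} ⊓ (R : Subgroup L) : Subgroup L) :=
    R.isPGroup'.to_le inf_le_right
  obtain ⟨k, hk, hle⟩ := sylow_cover (centralizer {u₀}) (h₀⁻¹ • R) hU _ hAp inf_le_left
  rw [mem_centralizer_singleton_iff] at hk
  refine ⟨k * h₀⁻¹, ?_, ?_⟩
  · calc (k * h₀⁻¹) * v₀ * (k * h₀⁻¹)⁻¹ = k * (h₀⁻¹ * v₀ * h₀) * k⁻¹ := by group
      _ = k * u₀ * k⁻¹ := by rw [← hu]
      _ = u₀ * k * k⁻¹ := by rw [hk]
      _ = u₀ := by group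
  · intro r hr1 hr2
    have h1 : r ∈ (centralizer {u₀} ⊓ (R : Subgroup L) : Subgroup L) :=
      Subgroup.mem_inf.2 ⟨by rw [mem_centralizer_singleton_iff]; exact hr2, (mem_R R hR).2 hr1⟩
    have h2 := hle h1
    rw [mem_smul_sylow, mem_smul_sylow, inv_inv] at h2
    have h3 := (mem_R R hR).1 h2
    rw [comm_conj]
    have e : (k * h₀⁻¹)⁻¹ * r * (k * h₀⁻¹) = h₀ * (k⁻¹ * r * k) * h₀⁻¹ := by group
    rw [e]
    exact h3

end Syl

section Main

variable [Finite L] [IsSimpleGroup L] {z : L}

/-- The `Z*`-theorem in a simple group. -/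
theorem exists_conj (hL : ¬ IsMulCommutative L) (hz : orderOf z = 2) :
    ∃ g, Commute (g * z * g⁻¹) z ∧ g * z * g⁻¹ ≠ z := by
  by_contra hcon
  push Not at hcon
  have hiso : Cfsg.IsIsolatedInvolution z := ⟨hz, fun g hg => hcon g hg.symm⟩
  obtain ⟨N, hNn, hNo, hN⟩ := zstarProp L z hiso
  have zz : z * z = 1 := by
    have h1 : z ^ 2 = 1 := by
      rw [← hz]
      exact pow_orderOf_eq_one z
    rwa [pow_two] at h1
  have z1 : z ≠ 1 := by
    rintro rfl
    rw [orderOf_one] at hz
    omega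
  have zinv : z⁻¹ = z := inv_eq_of_mul_eq_one_left zz
  rcases IsSimpleGroup.eq_bot_or_eq_top_of_normal N hNn with h | h
  · have hall : ∀ g, g * z * g⁻¹ = z := by
      intro g
      have h1 := hN g
      rw [h, mem_bot] at h1
      have h2 := eq_inv_of_mul_eq_one_right h1
      rw [zinv] at h2
      exact h2
    have hc : z ∈ center L := by
      rw [mem_center_iff]
      intro g
      calc g * z = (g * z * g⁻¹) * g := by group
        _ = z * g := by rw [hall]
    have htop : center L = ⊤ := by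
      rcases IsSimpleGroup.eq_bot_or_eq_top_of_normal (center L) inferInstance with h3 | h3
      · rw [h3, mem_bot] at hc
        exact absurd hc z1
      · exact h3
    apply hL
    refine ⟨⟨fun a b => ?_⟩⟩
    have h3 : a ∈ center L := htop ▸ mem_top a
    rw [mem_center_iff] at h3
    exact (h3 b).symm
  · rw [h] at hNo
    have h1 : Nat.card (⊤ : Subgroup L) = Nat.card L := Subgroup.card_top
    rw [h1] at hNo
    have h2 : orderOf z ∣ Nat.card L := orderOf_dvd_natCard z
    rw [hz] at h2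
    exact (Nat.not_even_iff_odd.2 hNo) (even_iff_two_dvd.2 h2)

/-- The focal subgroup theorem for a perfect group. -/
theorem le_of_focal (hL : ¬ IsMulCommutative L) (R : Sylow 2 L) (D : Subgroup L)
    (hD : ∀ x ∈ (R : Subgroup L), ∀ u, u * x * u⁻¹ ∈ (R : Subgroup L) → x⁻¹ * (u * x * u⁻¹) ∈ D) :
    (R : Subgroup L) ≤ D := by
  haveI : Fact (Nat.Prime 2) := ⟨Nat.prime_two⟩
  have hperf : commutator L = ⊤ := by
    rcases IsSimpleGroup.eq_bot_or_eq_top_of_normal (commutator L) inferInstance with h3 | h3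
    · exfalso
      apply hL
      refine ⟨⟨fun a b => ?_⟩⟩
      have h4 : ⁅a, b⁆ ∈ commutator L := by
        rw [_root_.commutator_def]
        exact commutator_mem_commutator (mem_top _) (mem_top _)
      rw [h3, mem_bot, commutatorElement_eq_one_iff_mul_comm] at h4
      exact h4
    · exact h3
  have h1 := Subgroup.commutator_inf_eq_focalSubgroup R
  rw [hperf, top_inf_eq, Subgroup.focalSubgroup_def] at h1
  rw [h1, closure_le]
  rintro y ⟨hy, x, hx, u, rfl⟩
  have h2 : u * x⁻¹ * u⁻¹ ∈ (R : Subgroup L) := by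
    have e : u * x⁻¹ * u⁻¹ = x⁻¹ * ⁅x, u⁆ := by
      rw [commutatorElement_def]
      group
    rw [e]
    exact mul_mem (inv_mem hx) hy
  have h3 := hD x⁻¹ (inv_mem hx) u h2
  have e : x⁻¹⁻¹ * (u * x⁻¹ * u⁻¹) = ⁅x, u⁆ := by
    rw [commutatorElement_def]
    group
  rwa [e] at h3

/-- The main theorem. -/
theorem main (hL : ¬ IsMulCommutative L) (hz : orderOf z = 2) (R : Sylow 2 L)
    (hR : (R : Subgroup L) = centralizer ({z} : Set L))
    (hΦ : (frattini ↥(R : Subgroup L)).map (R : Subgroup L).subtype = zpowers z) :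
    Nonempty (↥(R : Subgroup L) ≃* DihedralGroup 4) := by
  have Hzz := hz_of hz R hR hΦ
  obtain ⟨g, hgc, hgne⟩ := exists_conj hL hz
  have P₁ : Pr z (g * z * g⁻¹) := Pr.of Hzz g hgc hgne
  set y₁ := g * z * g⁻¹ with hy₁
  have mem := fun x => mem_R (x := x) R hR
  have conjsq : ∀ (u x : L), x * x = 1 → (u * x * u⁻¹) * (u * x * u⁻¹) = 1 := by
    intro u x hx
    calc (u * x * u⁻¹) * (u * x * u⁻¹) = u * (x * x) * u⁻¹ := by group
      _ = 1 := by rw [hx]; group
  -- elements of order four
  have hfo : ∀ r u, Commute r z → Commute (u * r * u⁻¹) z → r * r = z →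
      r⁻¹ * (u * r * u⁻¹) = 1 ∨ r⁻¹ * (u * r * u⁻¹) = z := by
    intro r u hr hr' hrr
    have e : (u * r * u⁻¹) * (u * r * u⁻¹) = u * z * u⁻¹ := by
      calc (u * r * u⁻¹) * (u * r * u⁻¹) = u * (r * r) * u⁻¹ := by group
        _ = _ := by rw [hrr]
    rcases Hzz.sq _ hr' with h | h
    · exfalso
      apply Hzz.z1
      calc z = u⁻¹ * (u * z * u⁻¹) * u := by group
        _ = 1 := by rw [← e, h]; group
    · have huz : u * z * u⁻¹ = z := e.symm.trans h
      have hcu : Commute u z := by
        show u * z = z * u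
        calc u * z = (u * z * u⁻¹) * u := by group
          _ = _ := by rw [huz]
      have e2 : r⁻¹ * (u * r * u⁻¹) = r⁻¹ * u * r⁻¹⁻¹ * u⁻¹ := by group
      rw [e2]
      exact Hzz.cm r⁻¹ u hr.inv_left hcu
  by_cases hcase : ∃ u₀ h₀ v₀, Commute u₀ z ∧ u₀ * u₀ = 1 ∧ ¬ Commute u₀ y₁ ∧ h₀ * u₀ * h₀⁻¹ = v₀ ∧
      (∀ r, Commute r z → Commute r v₀)
  · obtain ⟨u₀, h₀, v₀, hu₀z, hu₀u₀, hu₀y, hc, hv₀⟩ := hcase
    obtain ⟨g₂, hg₂v, hg₂⟩ := exists_y2 R hR hc hv₀
    have hu₀y₂ : Commute u₀ (g₂ * z * g₂⁻¹) := by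
      rw [← hg₂v]
      exact comm_conj'.2 (hv₀ z (Commute.refl z)).symm
    have hy₂c : Commute (g₂ * z * g₂⁻¹) z := (hg₂ z (Commute.refl z) hu₀z.symm).symm
    have hy₂ne : g₂ * z * g₂⁻¹ ≠ z := by
      intro h
      have hg₂c : Commute g₂ z := by
        show g₂ * z = z * g₂
        calc g₂ * z = (g₂ * z * g₂⁻¹) * g₂ := by group
          _ = _ := by rw [h]
      have h1 : g₂ * v₀ = v₀ * g₂ := hv₀ g₂ hg₂c
      have h2 : u₀ = v₀ := by
        rw [← hg₂v, h1]
        group
      apply hu₀y
      rw [h2]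
      exact (hv₀ y₁ P₁.comm).symm
    have P₂ : Pr z (g₂ * z * g₂⁻¹) := Pr.of Hzz g₂ hy₂c hy₂ne
    set y₂ := g₂ * z * g₂⁻¹ with hy₂
    have hn : ¬ Commute y₁ y₂ := by
      intro h12
      obtain ⟨t, ht1, ht2⟩ := P₂.t1
      apply ht2
      by_cases hty : Commute t y₁
      · exact P₁.comm1 ht1 hty P₂.comm h12.symm
      · have h3 := Hzz.two_coset hu₀z ht1 P₁.comm hu₀y hty
        have h4 : Commute (u₀⁻¹ * t) z := hu₀z.inv_left.mul_left ht1
        have h5 : Commute (u₀⁻¹ * t) y₂ := P₁.comm1 h4 h3 P₂.comm h12.symm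
        have e : t = u₀ * (u₀⁻¹ * t) := by group
        rw [e]
        exact hu₀y₂.mul_left h5
    have ss₁ := P₁.hy.zz
    have ss₂ := P₂.hy.zz
    have i₁ : y₁⁻¹ = y₁ := inv_eq_of_mul_eq_one_left ss₁
    have i₂ : y₂⁻¹ = y₂ := inv_eq_of_mul_eq_one_left ss₂
    have hww : (y₁ * y₂) * (y₁ * y₂) = z := by
      have h1 : y₁ * y₂ * y₁⁻¹ * y₂⁻¹ = z := by
        rcases Hzz.cm y₁ y₂ P₁.comm P₂.comm with h | h
        · exfalso
          apply hn
          show y₁ * y₂ = y₂ * y₁
          calc y₁ * y₂ = (y₁ * y₂ * y₁⁻¹ * y₂⁻¹) * (y₂ * y₁) := by group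
            _ = _ := by rw [h, one_mul]
        · exact h
      rw [i₁, i₂] at h1
      rw [← h1]
      group
    set D := closure ({y₁, y₂} : Set L) with hDdef
    have hy₁D : y₁ ∈ D := subset_closure (by simp)
    have hy₂D : y₂ ∈ D := subset_closure (by simp)
    have hzD : z ∈ D := by
      rw [← hww]
      exact mul_mem (mul_mem hy₁D hy₂D) (mul_mem hy₁D hy₂D)
    have hDR : D ≤ (R : Subgroup L) := by
      rw [hDdef, closure_le]
      intro x hx
      rcases hx with rfl | rfl
      · exact (mem _).2 P₁.comm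
      · exact (mem _).2 P₂.comm
    have hcw : Commute (y₁ * y₂) z := P₁.comm.mul_left P₂.comm
    have claim : ∀ r, Commute r z → r * r = 1 → ∃ h v, h * r * h⁻¹ = v ∧
        (∀ s, Commute s z → Commute s v) ∧ r * v ∈ D := by
      intro r hr hrr
      by_cases hc0 : ∀ s, Commute s z → Commute s r
      · exact ⟨1, r, by group, hc0, by rw [hrr]; exact one_mem _⟩
      by_cases h1 : Commute r y₁
      · obtain ⟨h, v, e1, e2, e3⟩ := P₁.exists_central hr h1 hc0
        refine ⟨h, v, e1, e2, ?_⟩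
        rcases e3 with e | e <;> rw [e]
        · exact hy₁D
        · exact mul_mem hy₁D hzD
      by_cases h2 : Commute r y₂
      · obtain ⟨h, v, e1, e2, e3⟩ := P₂.exists_central hr h2 hc0
        refine ⟨h, v, e1, e2, ?_⟩
        rcases e3 with e | e <;> rw [e]
        · exact hy₂D
        · exact mul_mem hy₂D hzD
      · exfalso
        have hw1 : ¬ Commute (y₁ * y₂) y₁ := by
          intro h3
          apply hn
          have e : y₂ = y₁⁻¹ * (y₁ * y₂) := by group
          have h4 : Commute y₂ y₁ := by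
            rw [e]
            exact (Commute.refl y₁).inv_left.mul_left h3
          exact h4.symm
        have hw2 : ¬ Commute (y₁ * y₂) y₂ := by
          intro h3
          apply hn
          have e : y₁ = (y₁ * y₂) * y₂⁻¹ := by group
          rw [e]
          exact h3.mul_left (Commute.refl y₂).inv_left
        have k1 := Hzz.two_coset hcw hr P₁.comm hw1 h1
        have k2 := Hzz.two_coset hcw hr P₂.comm hw2 h2
        have k3 : Commute ((y₁ * y₂)⁻¹ * r) z := hcw.inv_left.mul_left hr
        have cc := P₁.sq1 k3 k1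
        have k4 : Commute ((y₁ * y₂)⁻¹ * r) (y₁ * y₂) := k1.mul_right k2
        have e : r = (y₁ * y₂) * ((y₁ * y₂)⁻¹ * r) := by group
        rw [e] at hrr
        have e2 : (y₁ * y₂) * ((y₁ * y₂)⁻¹ * r) * ((y₁ * y₂) * ((y₁ * y₂)⁻¹ * r)) =
            ((y₁ * y₂) * (y₁ * y₂)) * (((y₁ * y₂)⁻¹ * r) * ((y₁ * y₂)⁻¹ * r)) :=
          k4.mul_mul_mul_comm _ _
        rw [e2, cc, hww, mul_one] at hrr
        exact Hzz.z1 hrr
    have hle := le_of_focal hL R D (by
      intro x hx u hu
      have hx' := (mem _).1 hx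
      have hu' := (mem _).1 hu
      rcases Hzz.sq x hx' with hxx | hxx
      · obtain ⟨h, v, e1, e2, e3⟩ := claim x hx' hxx
        obtain ⟨h', v', e1', e2', e3'⟩ := claim _ hu' (conjsq u x hxx)
        have hvv : v' = v := by
          have e4 : (h' * u * h⁻¹) * v * (h' * u * h⁻¹)⁻¹ = v' := by
            rw [← e1', ← e1]
            group
          have h5 := conj_central_eq R hR Hzz (v := v) (h := h' * u * h⁻¹) e2 (by rw [e4]; exact e2')
          rw [← e4, h5]
        rw [hvv] at e3'
        have hvv1 : v * v = 1 := by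
          rw [← e1]
          exact conjsq h x hxx
        have hr'v : (u * x * u⁻¹) * v = v * (u * x * u⁻¹) := e2 _ hu'
        have hxi : x⁻¹ = x := inv_eq_of_mul_eq_one_left hxx
        have e5 : x⁻¹ * (u * x * u⁻¹) = (x * v) * ((u * x * u⁻¹) * v) := by
          rw [hxi, hr'v]
          calc x * (u * x * u⁻¹) = x * (v * v) * (u * x * u⁻¹) := by rw [hvv1, mul_one]
            _ = _ := by group
        rw [e5]
        exact mul_mem e3 e3'
      · rcases hfo x u hx' hu' hxx with h | h <;> rw [h]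
        · exact one_mem _
        · exact hzD)
    have hRD : (R : Subgroup L) = D := le_antisymm hle hDR
    have hord : orderOf (y₁ * y₂) = 4 := by
      have h1 : (y₁ * y₂) ^ 2 ^ 1 ≠ 1 := by
        rw [pow_one, pow_two, hww]
        exact Hzz.z1
      have h2 : (y₁ * y₂) ^ 2 ^ (1 + 1) = 1 := by
        rw [show 2 ^ (1 + 1) = 2 + 2 by norm_num, pow_add, pow_two, hww, Hzz.zz]
      have h3 := orderOf_eq_prime_pow (p := 2) (n := 1) (hp := ⟨Nat.prime_two⟩) h1 h2
      simpa using h3
    have hne12 : y₁ ≠ y₂ := by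
      intro h
      apply hn
      rw [h]
    obtain ⟨e⟩ := Cfsg.Agent.Lib.Invol.isDihedral_closure ss₁ ss₂ P₁.hy.z1 P₂.hy.z1 hne12
    rw [hord] at e
    exact ⟨(MulEquiv.subgroupCongr hRD).trans e⟩
  · exfalso
    push Not at hcase
    -- a conjugate of a member of the abelian part cannot leave it
    have hstay : ∀ x u, Commute x z → x * x = 1 → Commute x y₁ → Commute (u * x * u⁻¹) z →
        Commute (u * x * u⁻¹) y₁ := by
      intro x u hx hxx hxy hx'
      by_contra hno
      by_cases hc0 : ∀ s, Commute s z → Commute s x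
      · obtain ⟨r, hr1, hr2⟩ := hcase (u * x * u⁻¹) (u⁻¹) x hx' (conjsq u x hxx) hno (by group)
        exact hr2 (hc0 r hr1)
      · obtain ⟨h, v, e1, e2, -⟩ := P₁.exists_central hx hxy hc0
        obtain ⟨r, hr1, hr2⟩ := hcase (u * x * u⁻¹) (h * u⁻¹) v hx' (conjsq u x hxx) hno (by rw [← e1]; group)
        exact hr2 (e2 r hr1)
    have hle := le_of_focal hL R (centralizer {y₁}) (by
      intro x hx u hu
      have hx' := (mem _).1 hx
      have hu' := (mem _).1 hu
      rw [mem_centralizer_singleton_iff]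
      rcases Hzz.sq x hx' with hxx | hxx
      · by_cases h1 : Commute x y₁
        · have h2 := hstay x u hx' hxx h1 hu'
          exact h1.inv_left.mul_left h2
        · by_cases h2 : Commute (u * x * u⁻¹) y₁
          · exfalso
            apply h1
            have e : u⁻¹ * (u * x * u⁻¹) * u⁻¹⁻¹ = x := by group
            have h3 := hstay (u * x * u⁻¹) u⁻¹ hu' (conjsq u x hxx) h2 (by rw [e]; exact hx')
            rwa [e] at h3
          · exact Hzz.two_coset hx' hu' P₁.comm h1 h2
      · rcases hfo x u hx' hu' hxx with h | h <;> rw [h]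
        · exact Commute.one_left _
        · exact P₁.comm.symm)
    obtain ⟨t, ht1, ht2⟩ := P₁.t1
    have h1 := hle ((mem _).2 ht1)
    rw [mem_centralizer_singleton_iff] at h1
    exact ht2 h1

end Main

end Cfsg.Agent.Lib.ZStar.D8
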