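import Cfsg.Agent.Lib.ZStar.WeakClosed
import Cfsg.Agent.Lib.Hall.CoprimeSylow

/-!
# Invariant Sylow subgroups for isolated involutions
-/

set_option autoImplicit false
set_option linter.unusedSectionVars false
set_option linter.style.haveILetI false

namespace Cfsg.Agent.Lib.ZStar

open Cfsg (IsIsolatedInvolution pCore pPrimeCore oddCore)
open Cfsg.Agent.Lib.Invol

variable {G : Type*} [Group G] [Finite G]

/-- For an isolated involution, `G = O(G) C_G(z)`. -/
theorem decomp_of_isolated {z : G} (hz : IsIsolatedInvolution z) (g : G) :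
    ∃ o ∈ oddCore G, ∃ c, Commute z c ∧ g = o * c := by
  obtain ⟨k, -, -, hkc, hkm⟩ := exists_midpoint hz g
  have h1 : g * z * g⁻¹ * z ∈ oddCore G := by
    have h2 := mem_oddCore_of_isolated hz g
    have h3 := (inferInstance : (oddCore G).Normal).conj_mem _ h2 z⁻¹
    have h4 : z⁻¹ = z := inv_eq_of_order_two hz.1
    have h5 : z⁻¹ * (z * (g * z * g⁻¹)) * z⁻¹⁻¹ = g * z * g⁻¹ * z := by
      rw [inv_inv, inv_mul_cancel_left]
    rwa [h5] at h3
  have hk : k ∈ oddCore G := (Subgroup.zpowers_le.mpr h1) hkm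
  refine ⟨k, hk, k⁻¹ * g, ?_, by group⟩
  have h2 : (k⁻¹ * g) * z * (k⁻¹ * g)⁻¹ = z := by
    have e : (k⁻¹ * g) * z * (k⁻¹ * g)⁻¹ = k⁻¹ * (g * z * g⁻¹) * k := by group
    rw [e, ← hkc]
    group
  show z * (k⁻¹ * g) = k⁻¹ * g * z
  calc z * (k⁻¹ * g) = ((k⁻¹ * g) * z * (k⁻¹ * g)⁻¹) * (k⁻¹ * g) := by rw [h2]
    _ = k⁻¹ * g * z := by group

theorem normalizer_mem_of_conj_le {R : Subgroup G} {z : G} (hzz : z * z = 1)
    (h : ∀ r ∈ R, z * r * z⁻¹ ∈ R) : z ∈ Subgroup.normalizer (R : Set G) := by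
  rw [Subgroup.mem_normalizer_iff]
  intro r
  refine ⟨h r, fun hr => ?_⟩
  have h1 := h _ hr
  have hi : z⁻¹ = z := inv_eq_of_mul_self hzz
  have e : z * (z * r * z⁻¹) * z⁻¹ = r := by
    rw [hi]
    calc z * (z * r * z) * z = (z * z) * r * (z * z) := by group
      _ = r := by rw [hzz]; group
  rwa [e] at h1

/-- The normal case of the invariant Sylow theorem. -/
theorem normal_case {N : Type*} [Group N] [Finite N] {z : N} (hz : IsIsolatedInvolution z)
    {p : ℕ} [Fact p.Prime] (hp : p ≠ 2) (Q : Subgroup N) (hQn : Q.Normal) (hQ : IsPGroup p Q)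
    (hmax : ∀ R : Subgroup N, IsPGroup p R → z ∈ Subgroup.normalizer (R : Set N) → Q ≤ R → R = Q)
    (t : N) (ht : IsPGroup p (Subgroup.zpowers t)) : t ∈ Q := by
  classical
  have hpodd : Odd p := (Fact.out : p.Prime).odd_of_ne_two hp
  have hzz := mul_self_of_order_two hz.1
  have hzi : z⁻¹ = z := inv_eq_of_mul_self hzz
  set O := oddCore N with hO
  have hOn : O.Normal := inferInstance
  have hOodd : Odd (Nat.card O) := oddCore_odd
  have hQO : Q ≤ O := by
    refine le_oddCore hQn ?_
    obtain ⟨k, hk⟩ := IsPGroup.iff_card.mp hQ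
    rw [hk]
    exact hpodd.pow
  by_contra htQ
  by_cases htO : t ∈ O
  · -- inside `O`
    let A : Subgroup N := Subgroup.zpowers z
    have hAO : A ≤ Subgroup.normalizer (O : Set N) := by
      rw [Subgroup.normalizer_eq_top_iff.mpr hOn]
      exact le_top
    have hAc : Nat.card A = 2 := by
      rw [Nat.card_zpowers, hz.1]
    have hcop : (Nat.card A).Coprime (Nat.card O) := by
      rw [hAc]
      exact Nat.coprime_two_left.mpr hOodd
    have hAQ : A ≤ Subgroup.normalizer (Q : Set N) := by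
      rw [Subgroup.normalizer_eq_top_iff.mpr hQn]
      exact le_top
    obtain ⟨P, hQP, hP⟩ := Cfsg.Agent.Lib.Hall.exists_invariant_sylow_le A O hAO hcop
      (Or.inl inferInstance) p Q hQO hQ hAQ
    have hPp : IsPGroup p ((P : Subgroup O).map O.subtype) := P.isPGroup'.map _
    have hPe := hmax _ hPp (hP (Subgroup.mem_zpowers z)) hQP
    -- `Q ⊔ ⟨t⟩` is a `p`-group in `O`
    have hU : IsPGroup p (Q ⊔ Subgroup.zpowers t : Subgroup N) :=
      IsPGroup.to_sup_of_normal_left hQ ht
    have hUO : Q ⊔ Subgroup.zpowers t ≤ O := sup_le hQO (Subgroup.zpowers_le.mpr htO)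
    have hU' : IsPGroup p ((Q ⊔ Subgroup.zpowers t).subgroupOf O) :=
      hU.comap_of_injective O.subtype O.subtype_injective
    have hle : (P : Subgroup O) ≤ (Q ⊔ Subgroup.zpowers t).subgroupOf O := by
      intro x hx
      rw [Subgroup.mem_subgroupOf]
      apply Subgroup.mem_sup_left
      rw [← hPe]
      exact ⟨x, hx, rfl⟩
    have hPeq := P.is_maximal' hU' hle
    have htO' : (⟨t, htO⟩ : O) ∈ (Q ⊔ Subgroup.zpowers t).subgroupOf O :=
      Subgroup.mem_subgroupOf.mpr (Subgroup.mem_sup_right (Subgroup.mem_zpowers t))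
    rw [hPeq] at htO'
    apply htQ
    rw [← hPe]
    exact ⟨_, htO', rfl⟩
  · -- outside `O`
    obtain ⟨o, ho, c, hc, rfl⟩ := decomp_of_isolated hz t
    have hcO : c ∉ O := fun h => htO (Subgroup.mul_mem _ ho h)
    obtain ⟨b, hb⟩ := IsPGroup.iff_orderOf.mp ht ⟨o * c, Subgroup.mem_zpowers _⟩
    rw [Subgroup.orderOf_mk] at hb
    -- `c ^ p ^ b ∈ O`
    have hcb : c ^ p ^ b ∈ O := by
      have h1 : ((o * c) ^ p ^ b : N) = 1 := by
        rw [← hb]
        exact pow_orderOf_eq_one _
      have h2 : (QuotientGroup.mk (o * c) : N ⧸ O) = (QuotientGroup.mk c : N ⧸ O) := by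
        rw [QuotientGroup.mk_mul, (QuotientGroup.eq_one_iff o).mpr ho, one_mul]
      have h3 : (QuotientGroup.mk c : N ⧸ O) ^ p ^ b = 1 := by
        rw [← h2, ← QuotientGroup.mk_pow, h1, QuotientGroup.mk_one]
      rw [← QuotientGroup.mk_pow] at h3
      exact (QuotientGroup.eq_one_iff _).mp h3
    -- the `p`-part of `c`
    obtain ⟨a, m, hm, ham⟩ := Nat.exists_eq_pow_mul_and_not_dvd (orderOf_pos c).ne' p
      (Fact.out : p.Prime).ne_one
    let y : N := c ^ m
    have hyord : y ^ p ^ a = 1 := by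
      show (c ^ m) ^ p ^ a = 1
      rw [← pow_mul, mul_comm, ← ham]
      exact pow_orderOf_eq_one _
    have hyp : IsPGroup p (Subgroup.zpowers y) := by
      rintro ⟨_, i, rfl⟩
      refine ⟨a, Subtype.ext ?_⟩
      show (y ^ i) ^ p ^ a = 1
      rw [← zpow_natCast, ← zpow_mul, mul_comm, zpow_mul, zpow_natCast, hyord, one_zpow]
    have hyO : y ∉ O := by
      intro hy
      apply hcO
      have hcop : Nat.Coprime m (p ^ b) := by
        apply Nat.Coprime.pow_right
        exact ((Nat.Prime.coprime_iff_not_dvd Fact.out).mpr hm).symm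
      have h1 : (QuotientGroup.mk c : N ⧸ O) ^ m = 1 := by
        rw [← QuotientGroup.mk_pow]
        exact (QuotientGroup.eq_one_iff _).mpr hy
      have h2 : (QuotientGroup.mk c : N ⧸ O) ^ p ^ b = 1 := by
        rw [← QuotientGroup.mk_pow]
        exact (QuotientGroup.eq_one_iff _).mpr hcb
      have h3 := Nat.eq_one_of_dvd_coprimes hcop (orderOf_dvd_of_pow_eq_one h1)
        (orderOf_dvd_of_pow_eq_one h2)
      exact (QuotientGroup.eq_one_iff _).mp (orderOf_eq_one_iff.mp h3)
    have hyz : Commute z y := hc.pow_right m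
    have hU : IsPGroup p (Q ⊔ Subgroup.zpowers y : Subgroup N) :=
      IsPGroup.to_sup_of_normal_left hQ hyp
    have hN : z ∈ Subgroup.normalizer ((Q ⊔ Subgroup.zpowers y : Subgroup N) : Set N) := by
      apply normalizer_mem_of_conj_le hzz
      intro r hr
      have hle : Q ⊔ Subgroup.zpowers y ≤ (Q ⊔ Subgroup.zpowers y).comap (MulAut.conj z).toMonoidHom := by
        apply sup_le
        · intro q hq
          exact Subgroup.mem_sup_left (hQn.conj_mem q hq z)
        · rw [Subgroup.zpowers_le]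
          show z * y * z⁻¹ ∈ (Q ⊔ Subgroup.zpowers y : Subgroup N)
          rw [hyz.eq, mul_inv_cancel_right]
          exact Subgroup.mem_sup_right (Subgroup.mem_zpowers y)
      exact hle hr
    have h := hmax _ hU hN le_sup_left
    have hyQ : y ∈ Q := by
      rw [← h]
      exact Subgroup.mem_sup_right (Subgroup.mem_zpowers y)
    exact hyO (hQO hyQ)

/-- **S1187**: maximal `z`-invariant `p`-subgroups are Sylow, for `z` isolated. -/
theorem maximal_invariant_is_sylow {z : G} (hz : IsIsolatedInvolution z) {p : ℕ} [Fact p.Prime]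
    (Q : Subgroup G) (hQ : IsPGroup p Q) (hzQ : z ∈ Subgroup.normalizer (Q : Set G))
    (hmax : ∀ R : Subgroup G, IsPGroup p R → z ∈ Subgroup.normalizer (R : Set G) → Q ≤ R → R = Q) :
    ∃ P : Sylow p G, (P : Subgroup G) = Q := by
  classical
  obtain ⟨T, hT⟩ := hQ.exists_le_sylow
  refine ⟨T, ?_⟩
  have hzz := mul_self_of_order_two hz.1
  by_cases hp : p = 2
  · subst hp
    -- `z ∈ Q`
    have hU : IsPGroup 2 (Q ⊔ Subgroup.zpowers z : Subgroup G) :=
      IsPGroup.to_sup_of_normal_left' hQ (isPGroup_zpowers_of_sq hzz) (by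
        rw [Subgroup.zpowers_le]
        exact hzQ)
    have hN : z ∈ Subgroup.normalizer ((Q ⊔ Subgroup.zpowers z : Subgroup G) : Set G) :=
      Subgroup.le_normalizer (Subgroup.mem_sup_right (Subgroup.mem_zpowers z))
    have h1 := hmax _ hU hN le_sup_left
    have hzQ' : z ∈ Q := by
      rw [← h1]
      exact Subgroup.mem_sup_right (Subgroup.mem_zpowers z)
    exact hmax _ T.isPGroup' (Subgroup.le_normalizer (hT hzQ')) hT
  · by_contra hne
    obtain ⟨x, hxT, hxQ, hxN⟩ := exists_mem_normalizer_of_lt T hT (Ne.symm hne)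
    -- work in the normalizer
    let N : Subgroup G := Subgroup.normalizer (Q : Set G)
    have hzN : z ∈ N := hzQ
    have hiso : IsIsolatedInvolution (⟨z, hzN⟩ : N) := isolated_subgroup hz
    have hQn : (Q.subgroupOf N).Normal := Subgroup.normal_subgroupOf_of_le_normalizer le_rfl
    have hQp : IsPGroup p (Q.subgroupOf N) := hQ.comap_of_injective N.subtype N.subtype_injective
    have hmax' : ∀ R : Subgroup N, IsPGroup p R →
        (⟨z, hzN⟩ : N) ∈ Subgroup.normalizer (R : Set N) → Q.subgroupOf N ≤ R → R = Q.subgroupOf N := by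
      intro R hRp hRz hQR
      have hQle : Q ≤ R.map N.subtype := by
        intro q hq
        exact ⟨⟨q, Subgroup.le_normalizer hq⟩, hQR (Subgroup.mem_subgroupOf.mpr hq), rfl⟩
      have hz2 : z ∈ Subgroup.normalizer ((R.map N.subtype : Subgroup G) : Set G) := by
        apply normalizer_mem_of_conj_le hzz
        rintro _ ⟨r, hr, rfl⟩
        have h1 := (Subgroup.mem_normalizer_iff.mp hRz r).mp hr
        exact ⟨_, h1, rfl⟩
      have h2 := hmax _ (hRp.map N.subtype) hz2 hQle
      apply le_antisymm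
      · intro r hr
        rw [Subgroup.mem_subgroupOf, ← h2]
        exact ⟨r, hr, rfl⟩
      · exact hQR
    have hxp : IsPGroup p (Subgroup.zpowers (⟨x, hxN⟩ : N)) := by
      have h1 : Subgroup.zpowers (⟨x, hxN⟩ : N) ≤ (T : Subgroup G).subgroupOf N := by
        rw [Subgroup.zpowers_le]
        exact Subgroup.mem_subgroupOf.mpr hxT
      exact (T.isPGroup'.comap_of_injective N.subtype N.subtype_injective).to_le h1
    have h := normal_case hiso hp (Q.subgroupOf N) hQn hQp hmax' ⟨x, hxN⟩ hxp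
    exact hxQ (Subgroup.mem_subgroupOf.mp h)

end Cfsg.Agent.Lib.ZStar
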