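import Cfsg.Agent.Lib.ZStar.SylowFusion
import Cfsg.Agent.Lib.InvolChar.Cyclic

/-!
# Weakly closed 2-elements are central modulo `O(G)`
-/

set_option autoImplicit false
set_option linter.unusedSectionVars false
set_option linter.style.haveILetI false

universe u

namespace Cfsg.Agent.Lib.ZStar

open Cfsg (IsIsolatedInvolution pCore pPrimeCore oddCore)
open Cfsg.Agent.Lib.Invol

theorem zpowers_isPGroup {G : Type*} [Group G] [Finite G] (S : Sylow 2 G) {z : G}
    (hz : z ∈ (S : Subgroup G)) : IsPGroup 2 (Subgroup.zpowers z) :=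
  haveI : Fact (Nat.Prime 2) := ⟨Nat.prime_two⟩
  S.isPGroup'.to_le (Subgroup.zpowers_le.mpr hz)

/-- A weakly closed element of a Sylow 2-subgroup is central in it. -/
theorem wc_central_in_sylow {G : Type*} [Group G] [Finite G] (S : Sylow 2 G) {z : G}
    (hzS : z ∈ (S : Subgroup G))
    (hwc : ∀ g, g * z * g⁻¹ ∈ (S : Subgroup G) → g * z * g⁻¹ = z) {s : G}
    (hs : s ∈ (S : Subgroup G)) : s * z = z * s := by
  have h1 := hwc s (Subgroup.mul_mem _ (Subgroup.mul_mem _ hs hzS) (Subgroup.inv_mem _ hs))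
  calc s * z = (s * z * s⁻¹) * s := by group
    _ = z * s := by rw [h1]

/-- The involution in `⟨z⟩` for a weakly closed 2-element `z` is isolated. -/
theorem wc_pow_isolated {G : Type*} [Group G] [Finite G] (S : Sylow 2 G) {z w : G}
    (hzS : z ∈ (S : Subgroup G))
    (hwc : ∀ g, g * z * g⁻¹ ∈ (S : Subgroup G) → g * z * g⁻¹ = z)
    (hw : w ∈ Subgroup.zpowers z) (hw2 : orderOf w = 2) : IsIsolatedInvolution w := by
  haveI : Fact (Nat.Prime 2) := ⟨Nat.prime_two⟩
  have hwS : w ∈ (S : Subgroup G) := Subgroup.zpowers_le.mpr hzS hw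
  have hzc : ∀ s ∈ (S : Subgroup G), s * z = z * s := fun s hs => wc_central_in_sylow S hzS hwc hs
  have hwc' : ∀ s, s * z = z * s → s * w = w * s := by
    intro s hs
    obtain ⟨i, rfl⟩ := hw
    exact ((show Commute s z from hs).zpow_right i).eq
  refine isolated_of_sylow S hw2 fun g hg => ?_
  set a := g * w * g⁻¹ with ha
  -- `g S g⁻¹` lies in the centralizer of `a`
  let C : Subgroup G := Subgroup.centralizer ({a} : Set G)
  have hmemC : ∀ x, x ∈ C ↔ x * a = a * x := fun x => by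
    show x ∈ Subgroup.centralizer ({a} : Set G) ↔ _
    rw [Subgroup.mem_centralizer_singleton_iff]
  have hS1 : ((g • S : Sylow 2 G) : Subgroup G) ≤ C := by
    intro x hx
    rw [mem_smul_sylow] at hx
    rw [hmemC]
    have h1 := hwc' _ (hzc _ hx)
    rw [ha]
    calc x * (g * w * g⁻¹) = g * ((g⁻¹ * x * g) * w) * g⁻¹ := by group
      _ = g * (w * (g⁻¹ * x * g)) * g⁻¹ := by rw [h1]
      _ = g * w * g⁻¹ * x := by group
  have hzC : Subgroup.zpowers z ≤ C := by
    rw [Subgroup.zpowers_le, hmemC]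
    exact (hzc a hg).symm
  obtain ⟨h, hhC, hh⟩ := sylow_cover C (g • S) hS1 _ (zpowers_isPGroup S hzS) hzC
  have hz1 : z ∈ (((h * g) • S : Sylow 2 G) : Subgroup G) := by
    rw [mul_smul]
    exact hh (Subgroup.mem_zpowers z)
  rw [mem_smul_sylow] at hz1
  have h2 := hwc (h * g)⁻¹ (by simpa [mul_assoc] using hz1)
  have h3 : (h * g) * z = z * (h * g) := by
    calc (h * g) * z = (h * g) * ((h * g)⁻¹ * z * ((h * g)⁻¹)⁻¹) := by rw [h2]
      _ = z * (h * g) := by group
  have h4 := hwc' _ h3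
  have h5 : h * a * h⁻¹ = a := by
    rw [(hmemC h).mp hhC, mul_inv_cancel_right]
  calc a = h * a * h⁻¹ := h5.symm
    _ = (h * g) * w * (h * g)⁻¹ := by rw [ha]; group
    _ = w := by rw [h4, mul_inv_cancel_right]

/-- In a group without normal subgroups of odd order, the quotient by a central involution has
no normal subgroups of odd order. -/
theorem oddCore_quotient_central {G : Type*} [Group G] [Finite G] (hO : oddCore G = ⊥) {w : G}
    (hw : orderOf w = 2) [(Subgroup.zpowers w).Normal] :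
    oddCore (G ⧸ Subgroup.zpowers w) = ⊥ := by
  haveI : Fact (Nat.Prime 2) := ⟨Nat.prime_two⟩
  rw [Cfsg.Agent.Lib.Core.pPrimeCore_eq_bot_iff]
  intro N hN hNc
  let f : G →* G ⧸ Subgroup.zpowers w := QuotientGroup.mk' _
  have hf : Function.Surjective f := QuotientGroup.mk'_surjective _
  let M : Subgroup G := N.comap f
  have hMn : M.Normal := hN.comap f
  have hker : Nat.card f.ker = 2 := by
    rw [QuotientGroup.ker_mk', Nat.card_zpowers, hw]
  have hcard : Nat.card M = Nat.card N * 2 := by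
    rw [← hker, mul_comm]
    exact Cfsg.Agent.Lib.Core.card_comap_of_surjective f hf N
  obtain ⟨R⟩ : Nonempty (Sylow 2 M) := inferInstance
  have hRc : IsCyclic R := by
    obtain ⟨k, hk⟩ := IsPGroup.iff_card.mp R.isPGroup'
    have h1 : Nat.card (R : Subgroup M) ∣ Nat.card N * 2 := by
      rw [← hcard]
      exact Subgroup.card_subgroup_dvd_card _
    rw [hk] at h1
    have hk1 : k ≤ 1 := by
      by_contra hk2
      have h2 : 4 ∣ Nat.card N * 2 := (pow_dvd_pow 2 (by omega : 2 ≤ k)).trans h1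
      have h3 : 2 ∣ Nat.card N := by omega
      have h4 : Nat.Coprime 2 (Nat.card N) := hNc.symm
      have := Nat.Coprime.eq_one_of_dvd h4 h3
      omega
    interval_cases k
    · haveI : Subsingleton (R : Subgroup M) :=
        (Nat.card_eq_one_iff_unique.mp (by simpa using hk)).1
      infer_instance
    · haveI : Fact (Nat.Prime (Nat.card (R : Subgroup M))) := ⟨by rw [hk]; simpa using Nat.prime_two⟩
      exact isCyclic_of_prime_card rfl
  obtain ⟨L, hL⟩ := Cfsg.Agent.Lib.InvolChar.exists_odd_elements_of_cyclic R hRc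
  have hL' : L.map M.subtype = ⊥ := by
    have hle : L.map M.subtype ≤ oddCore G := by
      refine Cfsg.Agent.Lib.Core.le_pPrimeCore ?_ ?_
      · constructor
        rintro _ ⟨x, hx, rfl⟩ g
        have hxM : (x : G) ∈ M := x.2
        have hgx : g * (x : G) * g⁻¹ ∈ M := hMn.conj_mem _ hxM g
        refine ⟨⟨_, hgx⟩, (hL _).mpr ?_, rfl⟩
        rw [Subgroup.orderOf_mk, orderOf_conj', Subgroup.orderOf_coe]
        exact (hL x).mp hx
      · rw [Nat.coprime_two_right]
        rw [Nat.card_congr (L.equivMapOfInjective M.subtype M.subtype_injective).toEquiv.symm]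
        by_contra hne
        rw [Nat.not_odd_iff_even] at hne
        obtain ⟨t, ht⟩ := exists_prime_orderOf_dvd_card' (G := L) 2 (even_iff_two_dvd.mp hne)
        have h3 := (hL t).mp t.2
        rw [Subgroup.orderOf_coe, ht] at h3
        simp at h3
    rw [hO] at hle
    exact le_bot_iff.mp hle
  have hodd1 : ∀ x : M, (orderOf x).Coprime 2 → x = 1 := by
    intro x hx
    have h1 : (x : G) ∈ L.map M.subtype := ⟨x, (hL x).mpr hx, rfl⟩
    rw [hL', Subgroup.mem_bot] at h1
    exact Subtype.ext h1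
  rw [eq_bot_iff]
  intro n hn
  obtain ⟨x, rfl⟩ := hf n
  have hxM : x ∈ M := hn
  have hxord : orderOf x ≠ 0 := (orderOf_pos x).ne'
  obtain ⟨a, u, hu, hau⟩ := Nat.exists_eq_two_pow_mul_odd hxord
  have h1 : ((⟨x, hxM⟩ : M) ^ (2 ^ a)) = 1 := by
    apply hodd1
    have h2 : orderOf ((⟨x, hxM⟩ : M) ^ (2 ^ a)) ∣ u := by
      apply orderOf_dvd_of_pow_eq_one
      rw [← pow_mul]
      apply Subtype.ext
      show x ^ (2 ^ a * u) = 1
      rw [← hau]
      exact pow_orderOf_eq_one x
    exact Nat.Coprime.coprime_dvd_left h2 (Nat.coprime_two_right.mpr hu)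
  have h2 : x ^ (2 ^ a) = 1 := congrArg Subtype.val h1
  have h3 : orderOf (f x) ∣ 2 ^ a :=
    (orderOf_map_dvd f x).trans (orderOf_dvd_of_pow_eq_one h2)
  have h4 : orderOf (f x) ∣ Nat.card N := by
    have : orderOf (⟨f x, hn⟩ : N) ∣ Nat.card N := orderOf_dvd_natCard _
    rwa [Subgroup.orderOf_mk] at this
  have h5 : Nat.Coprime (2 ^ a) (Nat.card N) := Nat.Coprime.pow_left a hNc.symm
  have h6 : orderOf (f x) = 1 := Nat.eq_one_of_dvd_coprimes h5 h3 h4
  rw [Subgroup.mem_bot]
  exact orderOf_eq_one_iff.mp h6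

/-- In a group without normal subgroups of odd order, a weakly closed 2-element is central. -/
theorem wc_central : ∀ (n : ℕ) (G : Type u) [Group G] [Finite G], oddCore G = ⊥ →
    ∀ (S : Sylow 2 G) (z : G), orderOf z = n → z ∈ (S : Subgroup G) →
    (∀ g, g * z * g⁻¹ ∈ (S : Subgroup G) → g * z * g⁻¹ = z) → ∀ g, g * z * g⁻¹ = z := by
  intro n
  induction n using Nat.strong_induction_on with
  | _ n ih =>
    intro G _ _ hO S z hzn hzS hwc g
    haveI : Fact (Nat.Prime 2) := ⟨Nat.prime_two⟩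
    by_cases hz1 : z = 1
    · subst hz1
      simp
    -- the involution in `⟨z⟩`
    obtain ⟨m, hm⟩ := (IsPGroup.iff_orderOf.mp (zpowers_isPGroup S hzS)) ⟨z, Subgroup.mem_zpowers z⟩
    rw [Subgroup.orderOf_mk] at hm
    have hm0 : m ≠ 0 := by
      rintro rfl
      exact hz1 (orderOf_eq_one_iff.mp (by simpa using hm))
    obtain ⟨m', rfl⟩ := Nat.exists_eq_succ_of_ne_zero hm0
    let w : G := z ^ (2 ^ m')
    have hw2 : orderOf w = 2 := by
      have h1 : orderOf z / 2 = 2 ^ m' := by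
        rw [hm, pow_succ]
        simp
      have h2 := orderOf_pow_orderOf_div (x := z) (n := 2) (orderOf_pos z).ne' (by
        rw [hm, pow_succ]
        exact Dvd.intro_left _ rfl)
      rwa [h1] at h2
    have hwm : w ∈ Subgroup.zpowers z := Subgroup.npow_mem_zpowers z _
    have hiso := wc_pow_isolated S hzS hwc hwm hw2
    have hww := mul_self_of_order_two hw2
    have hwi : w⁻¹ = w := inv_eq_of_mul_self hww
    have hwcen : ∀ a : G, a * w * a⁻¹ = w := by
      intro a
      have h1 := mem_oddCore_of_isolated hiso a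
      rw [hO, Subgroup.mem_bot] at h1
      have h2 := eq_inv_of_mul_eq_one_right h1
      rwa [hwi] at h2
    haveI hnorm : (Subgroup.zpowers w).Normal := by
      constructor
      rintro _ ⟨i, rfl⟩ a
      refine ⟨i, ?_⟩
      show w ^ i = a * w ^ i * a⁻¹
      have h1 := (MulAut.conj a).toMonoidHom.map_zpow w i
      have h2 : (MulAut.conj a).toMonoidHom w = w := hwcen a
      rw [h2] at h1
      exact h1.symm
    let f : G →* G ⧸ Subgroup.zpowers w := QuotientGroup.mk' _
    have hf : Function.Surjective f := QuotientGroup.mk'_surjective _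
    have hker : ∀ a, f a = 1 ↔ a ∈ Subgroup.zpowers w := fun a => QuotientGroup.eq_one_iff a
    have hwS : w ∈ (S : Subgroup G) := Subgroup.pow_mem _ hzS _
    have hwz : Subgroup.zpowers w ≤ (S : Subgroup G) := Subgroup.zpowers_le.mpr hwS
    -- the order decreases
    have hlt : orderOf (f z) < n := by
      have h1 : (f z) ^ (2 ^ m') = 1 := by
        rw [← map_pow, hker]
        exact Subgroup.mem_zpowers _
      have h2 : orderOf (f z) ≤ 2 ^ m' :=
        orderOf_le_of_pow_eq_one (by positivity) h1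
      have h3 : 2 ^ m' < 2 ^ (m' + 1) := Nat.pow_lt_pow_right (by norm_num) (by omega)
      rw [← hzn, hm]
      omega
    -- weak closure in the quotient
    have hmemS : ∀ y, f y ∈ (S : Subgroup G).map f → y ∈ (S : Subgroup G) := by
      rintro y ⟨s, hs, hsy⟩
      have h1 : f (s⁻¹ * y) = 1 := by
        rw [map_mul, map_inv, hsy, inv_mul_cancel]
      have h2 := hwz ((hker _).mp h1)
      have h3 := Subgroup.mul_mem _ hs h2
      simpa using h3
    have hwc2 : ∀ a, a * f z * a⁻¹ ∈ ((S.mapSurjective hf : Sylow 2 _) : Subgroup (G ⧸ Subgroup.zpowers w)) →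
        a * f z * a⁻¹ = f z := by
      intro a ha
      obtain ⟨b, rfl⟩ := hf a
      have h1 : f (b * z * b⁻¹) ∈ (S : Subgroup G).map f := by
        simpa [map_mul, map_inv] using ha
      have h2 := hwc b (hmemS _ h1)
      rw [← map_inv, ← map_mul, ← map_mul, h2]
    have h1 := ih _ hlt (G ⧸ Subgroup.zpowers w) (oddCore_quotient_central hO hw2) (S.mapSurjective hf) (f z) rfl
      (Subgroup.mem_map_of_mem f hzS) hwc2 (f g)
    have h2 : f (g * z * g⁻¹) ∈ (S : Subgroup G).map f := by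
      rw [map_mul, map_mul, map_inv, h1]
      exact Subgroup.mem_map_of_mem f hzS
    exact hwc g (hmemS _ h2)

/-- Two elements of a Sylow 2-subgroup that agree modulo `O(G)` are equal. -/
theorem eq_of_sylow_of_oddCore {G : Type*} [Group G] [Finite G] (S : Sylow 2 G) {a : G}
    (hS : a ∈ (S : Subgroup G)) (hO : a ∈ oddCore G) : a = 1 := by
  haveI : Fact (Nat.Prime 2) := ⟨Nat.prime_two⟩
  obtain ⟨k, hk⟩ := (IsPGroup.iff_orderOf.mp S.isPGroup') ⟨a, hS⟩
  rw [Subgroup.orderOf_mk] at hk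
  have h1 : orderOf a ∣ Nat.card (oddCore G) := by
    have : orderOf (⟨a, hO⟩ : oddCore G) ∣ Nat.card (oddCore G) := orderOf_dvd_natCard _
    rwa [Subgroup.orderOf_mk] at this
  have h2 : Nat.Coprime (2 ^ k) (Nat.card (oddCore G)) :=
    Nat.Coprime.pow_left k (Nat.coprime_two_left.mpr oddCore_odd)
  rw [hk] at h1
  have h3 : 2 ^ k = 1 := Nat.eq_one_of_dvd_coprimes h2 dvd_rfl h1
  rw [h3] at hk
  exact orderOf_eq_one_iff.mp hk

/-- A `2`-subgroup of `O(G) S` is conjugate into `S` under `O(G)`. -/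
theorem exists_conj_into_sylow {G : Type*} [Group G] [Finite G] (S : Sylow 2 G) (A : Subgroup G)
    (hA : IsPGroup 2 A) (hAK : A ≤ oddCore G ⊔ (S : Subgroup G)) :
    ∃ o ∈ oddCore G, ∀ a ∈ A, o⁻¹ * a * o ∈ (S : Subgroup G) := by
  haveI : Fact (Nat.Prime 2) := ⟨Nat.prime_two⟩
  obtain ⟨k, hk, hA2⟩ := sylow_cover (oddCore G ⊔ (S : Subgroup G)) S le_sup_right A hA hAK
  have hk' : k ∈ ((oddCore G ⊔ (S : Subgroup G) : Subgroup G) : Set G) := hk
  rw [Subgroup.normal_mul] at hk'
  obtain ⟨o, ho, s, hs, rfl⟩ := Set.mem_mul.mp hk'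
  refine ⟨o, ho, fun a ha => ?_⟩
  have h1 := hA2 ha
  rw [mem_smul_sylow] at h1
  have h2 : s * ((o * s)⁻¹ * a * (o * s)) * s⁻¹ ∈ (S : Subgroup G) :=
    Subgroup.mul_mem _ (Subgroup.mul_mem _ hs h1) (Subgroup.inv_mem _ hs)
  have e : s * ((o * s)⁻¹ * a * (o * s)) * s⁻¹ = o⁻¹ * a * o := by group
  rwa [e] at h2

/-- **Weakly closed 2-elements are central modulo `O(G)`.** -/
theorem central_mod_oddCore {G : Type u} [Group G] [Finite G] (S : Sylow 2 G) {z : G}
    (hzS : z ∈ (S : Subgroup G))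
    (hwc : ∀ g, g * z * g⁻¹ ∈ (S : Subgroup G) → g * z * g⁻¹ = z) (g : G) :
    z⁻¹ * (g * z * g⁻¹) ∈ oddCore G := by
  haveI : Fact (Nat.Prime 2) := ⟨Nat.prime_two⟩
  let f : G →* G ⧸ oddCore G := QuotientGroup.mk' _
  have hf : Function.Surjective f := QuotientGroup.mk'_surjective _
  have hwc2 : ∀ a, a * f z * a⁻¹ ∈ ((S.mapSurjective hf : Sylow 2 _) : Subgroup (G ⧸ oddCore G)) →
      a * f z * a⁻¹ = f z := by
    intro a ha
    obtain ⟨b, rfl⟩ := hf a
    have h1 : f (b * z * b⁻¹) ∈ (S : Subgroup G).map f := by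
      simpa [map_mul, map_inv] using ha
    obtain ⟨s, hs, hsy⟩ := h1
    have h2 : s⁻¹ * (b * z * b⁻¹) ∈ oddCore G := by
      rw [← QuotientGroup.eq_one_iff]
      show f _ = 1
      rw [map_mul, map_inv, hsy, inv_mul_cancel]
    have h3 : b * z * b⁻¹ ∈ oddCore G ⊔ (S : Subgroup G) := by
      have h4 := Subgroup.mul_mem (oddCore G ⊔ (S : Subgroup G)) (Subgroup.mem_sup_right hs)
        (Subgroup.mem_sup_left h2)
      simpa using h4
    have hp : IsPGroup 2 (Subgroup.zpowers (b * z * b⁻¹)) := by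
      have h5 := conj_mem_smul_sylow S b z hzS
      exact zpowers_isPGroup (b • S) h5
    obtain ⟨o, ho, ho2⟩ := exists_conj_into_sylow S _ hp (Subgroup.zpowers_le.mpr h3)
    have h5 := ho2 _ (Subgroup.mem_zpowers _)
    have e : o⁻¹ * (b * z * b⁻¹) * o = (o⁻¹ * b) * z * (o⁻¹ * b)⁻¹ := by group
    rw [e] at h5
    have h6 := hwc _ h5
    have h7 : f o = 1 := (QuotientGroup.eq_one_iff o).mpr ho
    have h8 := congrArg f h6
    simp only [map_mul, map_inv, h7, inv_one, one_mul] at h8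
    exact h8
  have h1 := wc_central _ (G ⧸ oddCore G) (Cfsg.Agent.Lib.Core.pPrimeCore_quotient_eq_bot)
    (S.mapSurjective hf) (f z) rfl (Subgroup.mem_map_of_mem f hzS) hwc2 (f g)
  rw [← QuotientGroup.eq_one_iff]
  show f _ = 1
  rw [map_mul, map_mul, map_mul, map_inv, map_inv, h1, inv_mul_cancel]

end Cfsg.Agent.Lib.ZStar
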